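import Cfsg.Agent.H36.K63Spec
import Cfsg.Agent.H32.McC
import Cfsg.Agent.H32.CliffordCorr

/-! The upper count of characters over a `T`-stable set of characters of a normal subgroup. -/

set_option autoImplicit false

open Cfsg H28 H32 H36.K63

namespace H29.K63U

universe u

theorem card_eq_of_surj {A B : Type*} [Group A] [Group B] (f : A →* B)
    (hf : Function.Surjective f) : Nat.card A = Nat.card f.ker * Nat.card B := by
  rw [← f.ker.card_mul_index, Subgroup.index_ker, MonoidHom.range_eq_top.2 hf, Subgroup.card_top]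

theorem over_le {G E : Type*} [Group G] [Finite G] [Group E] [Finite E] (N T : Subgroup G)
    [N.Normal] [Fintype N] (π : T →* E) (hπ : ∀ t : T, π t = 1 ↔ (t : G) ∈ N)
    (θ : IrrCharacter N) (hI : inertia θ.1 ≤ T) :
    Nat.card (inertia θ.1 : Subgroup G) *
        Nat.card {χ : IrrCharacter G // classInner (fun n : N => χ.1 n) θ.1 ≠ 0} ≤
      Nat.card N * comm (((inertia θ.1).subgroupOf T).map π) := by
  classical
  have := Fintype.ofFinite G
  obtain ⟨I, hIdef⟩ : ∃ I : Subgroup G, I = inertia θ.1 := ⟨_, rfl⟩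
  rw [← hIdef] at hI ⊢
  have hNI : N ≤ I := hIdef ▸ le_inertia θ.2.isClassFunction
  have : Fintype (N.subgroupOf I) := Fintype.ofFinite _
  let f : I →* ((I.subgroupOf T).map π) :=
    (π.comp (Subgroup.inclusion hI)).codRestrict _
      (fun x => Subgroup.mem_map_of_mem π (show Subgroup.inclusion hI x ∈ I.subgroupOf T from x.2))
  have hf : Function.Surjective f := by
    rintro ⟨_, t, ht, rfl⟩
    exact ⟨⟨t, ht⟩, rfl⟩
  have hker : f.ker = N.subgroupOf I := by
    ext x
    rw [MonoidHom.mem_ker, Subtype.ext_iff, Subgroup.mem_subgroupOf]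
    exact hπ _
  have h1 : Nat.card I = Nat.card N * Nat.card ((I.subgroupOf T).map π) := by
    rw [card_eq_of_surj f hf, hker, Nat.card_congr (Subgroup.subgroupOfEquivOfLe hNI).toEquiv]
  have h2 := card_over_eq_card_good f hf hker (isIrrCharacter_subgroupOf hNI θ.2)
    (by rw [inertia_subgroupOf hNI, Subgroup.subgroupOf_eq_top, hIdef])
  have h3 : Nat.card {χ : IrrCharacter G // classInner (fun n : N => χ.1 n) θ.1 ≠ 0} ≤
      Nat.card {ψ : IrrCharacter I // classInner (fun n : N.subgroupOf I => ψ.1 n)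
        (fun x : N.subgroupOf I => θ.1 ⟨(x : I), x.2⟩) ≠ 0} := by
    have hex : ∀ χ : {χ : IrrCharacter G // classInner (fun n : N => χ.1 n) θ.1 ≠ 0},
        ∃ ψ : {ψ : IrrCharacter I // classInner (fun n : N.subgroupOf I => ψ.1 n)
          (fun x : N.subgroupOf I => θ.1 ⟨(x : I), x.2⟩) ≠ 0}, indFun I ψ.1.1 = χ.1.1 := by
      intro χ
      obtain ⟨ψ, hψ, h4, h5⟩ := cliffordCorr_surj θ.2 hIdef hNI χ.1.2 χ.2
      refine ⟨⟨⟨ψ, hψ⟩, ?_⟩, h4⟩
      rw [classInner_res_subgroupOf hNI, h5]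
      exact χ.2
    choose F hF using hex
    refine Nat.card_le_card_of_injective F fun a b hab => ?_
    apply Subtype.ext
    apply Subtype.ext
    rw [← hF a, ← hF b, hab]
  have h4 := h3.trans (h2.le.trans (Finite.card_subtype_le _))
  rw [comm_eq, h1, mul_assoc]
  exact Nat.mul_le_mul_left _ (Nat.mul_le_mul_left _ h4)

open Classical in
theorem orbit_le {G : Type*} [Group G] [Finite G] (N T : Subgroup G) [N.Normal] [Fintype N]
    (b : Finset (IrrCharacter N)) (hb : ∀ θ ∈ b, ∀ t ∈ T, ∃ θ' ∈ b, θ'.1 = cj t θ.1)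
    (χ : IrrCharacter G) (θ₀ : IrrCharacter N) (h0 : θ₀ ∈ b)
    (hχ : classInner (fun n : N => χ.1 n) θ₀.1 ≠ 0) :
    Nat.card T ≤ ∑ θ ∈ b, if classInner (fun n : N => χ.1 n) θ.1 ≠ 0 then
      Nat.card (inertia θ.1 : Subgroup G) else 0 := by
  have := Fintype.ofFinite T
  let g : T → IrrCharacter N := fun t => ⟨cj (t : G) θ₀.1, isIrrCharacter_cj θ₀.2 _⟩
  have hg : ∀ t ∈ (Finset.univ : Finset T), g t ∈ b := by
    intro t _
    obtain ⟨θ', h1, h2⟩ := hb θ₀ h0 t t.2
    rwa [show g t = θ' from Subtype.ext h2.symm]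
  rw [Nat.card_eq_fintype_card, ← Finset.card_univ, Finset.card_eq_sum_card_fiberwise hg]
  refine Finset.sum_le_sum fun θ _ => ?_
  rcases (Finset.univ.filter fun t => g t = θ).eq_empty_or_nonempty with he | ⟨t₀, ht₀⟩
  · rw [he, Finset.card_empty]; exact Nat.zero_le _
  have h1 : cj (t₀ : G) θ₀.1 = θ.1 := congrArg Subtype.val (Finset.mem_filter.1 ht₀).2
  rw [if_pos (by rw [← h1, classInner_res_cj χ.2.isClassFunction]; exact hχ),
    ← Nat.card_eq_finsetCard]
  refine Nat.card_le_card_of_injective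
    (fun t => (⟨(t₀ : G)⁻¹ * (t.1 : G), ?_⟩ : (inertia θ.1 : Subgroup G))) ?_
  · have h2 : cj (t.1 : G) θ₀.1 = θ.1 := congrArg Subtype.val (Finset.mem_filter.1 t.2).2
    rw [mem_inertia, cj_mul]
    conv_lhs => rw [← h1, cj_inv_cj]
    exact h2
  · intro a c hac
    exact Subtype.ext (Subtype.ext (mul_left_cancel (congrArg Subtype.val hac)))

theorem job : H36.K63.JobU.{u} := by
  intro G E _ _ _ _ N T _ _ π hNT hsurj hπ b hI hb 𝒳 h𝒳
  classical
  have hker : π.ker = N.subgroupOf T := by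
    ext x
    rw [MonoidHom.mem_ker, Subgroup.mem_subgroupOf]
    exact hπ _
  have h1 : Nat.card T = Nat.card N * Nat.card E := by
    rw [card_eq_of_surj π hsurj, hker, Nat.card_congr (Subgroup.subgroupOfEquivOfLe hNT).toEquiv]
  have := Fintype.ofFinite 𝒳
  refine Nat.le_of_mul_le_mul_left ?_ (Nat.card_pos (α := N))
  rw [← mul_assoc, ← h1, Finset.mul_sum]
  calc Nat.card T * Nat.card 𝒳 = ∑ _χ : 𝒳, Nat.card T := by
        rw [Finset.sum_const, Finset.card_univ, smul_eq_mul, mul_comm,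
          Nat.card_eq_fintype_card (α := 𝒳)]
    _ ≤ ∑ χ : 𝒳, ∑ θ ∈ b, if classInner (fun n : N => χ.1.1 n) θ.1 ≠ 0 then
          Nat.card (inertia θ.1 : Subgroup G) else 0 := by
        refine Finset.sum_le_sum fun χ _ => ?_
        obtain ⟨θ₀, h0, h2⟩ := h𝒳 χ.1 χ.2
        convert orbit_le N T b hb χ.1 θ₀ h0 h2
    _ = ∑ θ ∈ b, ∑ χ : 𝒳, if classInner (fun n : N => χ.1.1 n) θ.1 ≠ 0 then
          Nat.card (inertia θ.1 : Subgroup G) else 0 := Finset.sum_comm
    _ ≤ _ := by
        refine Finset.sum_le_sum fun θ hθ => le_trans ?_ (over_le N T π hπ θ (hI θ hθ))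
        rw [← Finset.sum_filter, Finset.sum_const, smul_eq_mul, mul_comm]
        refine Nat.mul_le_mul_left _ ?_
        rw [← Nat.card_eq_finsetCard]
        exact Nat.card_le_card_of_injective
          (fun χ => ⟨χ.1.1, (Finset.mem_filter.1 χ.2).2⟩)
          fun a c hac => Subtype.ext (Subtype.ext (Subtype.mk.inj hac))

end H29.K63U
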