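import Cfsg.Agent.H60.WrO3Spec
import Cfsg.Agent.H22.HHGen
import Cfsg.Agent.H2.CoreFree
import Cfsg.Agent.H1.CoprimeGen

/-! C7-O3 tower, job KG. -/

set_option autoImplicit false

namespace H29.O3KG

open _root_.Cfsg Subgroup Polynomial

universe u

theorem jobO3KG : H60.Wr.JobO3KG.{u} := by
  intro F _ _ ι _ _ K C U h2 ⟨a, a0, a1⟩ hU hi h3 hn hc hu
  obtain ⟨p, hp⟩ := CharP.exists F
  have hpp : Fact p.Prime := ⟨CharP.char_is_prime F p⟩
  let f : Multiplicative F →* GL ι F := MonoidHom.mk' (fun s => U s.toAdd) fun a b => hU _ _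
  have hf : Function.Injective f := (injective_iff_map_eq_one f).2 fun s e => hi _ e
  have h4 : ∀ s : Multiplicative F, f s ^ p = 1 := fun s => by
    rw [← map_pow, ← map_one f]
    exact congrArg f (congrArg Multiplicative.ofAdd (by simp : p • s.toAdd = 0))
  have h5 : f.range ≤ normalizer (K : Set (GL ι F)) := H1.le_normalizer_of_conj_mem (by
    rintro _ ⟨s, rfl⟩ x hx
    exact hn _ x hx)
  have hA : IsPGroup p f.range := fun ⟨_, s, rfl⟩ => ⟨1, Subtype.ext (by simpa using h4 s)⟩
  have hK : ¬ p ∣ Nat.card K := fun hd => by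
    obtain ⟨x, hx⟩ := exists_prime_orderOf_dvd_card' p
      (((H2.card_modEq_card_inf_centralizer hA h5).dvd_iff dvd_rfl).1 hd)
    have h6 : (x : GL ι F) ^ p = 1 := by rw [← Subgroup.coe_pow, ← hx, pow_orderOf_eq_one, Subgroup.coe_one]
    cases isEmpty_or_nonempty ι
    · exact hpp.out.one_lt.ne' (by rw [← hx, Subsingleton.elim x 1, orderOf_one])
    have h7 := hu x x.2.1 (hc 1 one_ne_zero x x.2.1 (x.2.2 _ ⟨Multiplicative.ofAdd 1, rfl⟩)) ⟨p, by
      rw [sub_pow_char_of_commute p (Commute.one_right _), ← Units.val_pow_eq_pow_val, h6]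
      simp⟩
    exact hpp.out.one_lt.ne' (by rw [← hx, show x = 1 from Subtype.ext h7, orderOf_one])
  by_cases h6 : p = 3
  · subst h6
    refine H1.le_of_noncyclic_centralizer_le (A := f.range) (fun hcy => ?_) h5
      (H1.coprime_card_of_isPGroup hA
        ((Nat.Prime.coprime_iff_not_dvd hpp.out).2 hK).symm).symm C ?_
    · have h7 : Nat.card f.range ∣ 3 := by
        rw [← IsCyclic.exponent_eq_card]
        exact Monoid.exponent_dvd_of_forall_pow_eq_one fun ⟨_, s, rfl⟩ => Subtype.ext (h4 s)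
      rw [← Nat.card_congr (MonoidHom.ofInjective hf).toEquiv,
        Nat.card_congr Multiplicative.toAdd] at h7
      have := Fintype.ofFinite F
      have h8 := FiniteField.pow_card_sub_one_eq_one a a0
      rw [← Nat.card_eq_fintype_card] at h8
      rcases (Nat.dvd_prime Nat.prime_three).1 h7 with e | e
      · exact Finite.one_lt_card.ne' e
      · exact a1 (by rwa [e] at h8)
    · rintro _ ⟨s, rfl⟩ h7 x hx
      exact hc _ (fun e => h7 (by rw [show s = 1 from e, map_one])) x hx.1
        (mem_centralizer_singleton_iff.1 hx.2).symm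
  intro x hx
  refine hc 1 one_ne_zero x hx (by_contra fun h7 => ?_)
  let e := Matrix.toLinAlgEquiv' (R := F) (n := ι)
  let ρ : Representation F (GL ι F) (ι → F) := e.toMonoidHom.comp (Units.coeHom _)
  have h8 := H22.hh_degree_coprime ρ K hK (by rwa [Ne, CharP.cast_eq_zero_iff F p])
    (f (Multiplicative.ofAdd 1)) ⟨1, by simpa using h4 _⟩ (h5 ⟨_, rfl⟩) 0
    (by rw [← map_pow, zero_add, pow_one, h4, map_one]) ⟨x, hx, fun e' => h7 (by
      rw [pow_zero, pow_one, ← map_mul, ← map_mul] at e'
      exact Units.ext (e.injective e'))⟩ ((X - Polynomial.C 1) ^ 3)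
    (pow_ne_zero _ (X_sub_C_ne_zero 1)) (by
      rw [map_pow, map_sub, aeval_X, aeval_C, map_one (algebraMap F _), ← map_one e, ← map_zero e, ← h3 1, map_pow,
        map_sub]
      rfl)
  rw [natDegree_pow, natDegree_X_sub_C] at h8
  have h9 : p ≤ 4 := by
    rcases h8 with h | ⟨q, k, l, m, -, e1, -, -, -, h⟩
    · simp at h; omega
    · obtain rfl : k = 0 := by omega
      simpa using h
  have h10 := hpp.out.two_le
  have h11 : p ≠ 2 := by
    rintro rfl
    exact h2 (by exact_mod_cast CharP.cast_eq_zero F 2)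
  obtain rfl : p = 4 := by omega
  exact absurd hpp.out (by decide)

end H29.O3KG
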