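/- Tensor-induced subgroups with factors `Ω₄⁻`: jobs END, PW, FL. -/
import Cfsg.Agent.H60.WrO4Kit
import Cfsg.Agent.H59.WrEnd

set_option autoImplicit false

namespace H29.O4E
open _root_.Cfsg Cfsg.Geo Matrix H19 Module H60 H60.Wr H56 QuadraticMap
open scoped MatrixGroups

universe u

theorem jobO4End : JobO4End.{u} := by
  intro F _ _ t B M Q hC hQ _ hR
  set N := M.comap (toGL Q) with hN
  have cm : ∀ {u v}, B.f u v = 0 → B.f v u = 0 := B.eq_zero_comm.1
  have cm' : ∀ {u v}, B.f u v ≠ 0 → B.f v u ≠ 0 := fun h h' => h (cm h')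
  have one : ∀ {u v}, B.f u v = 1 → B.f u v ≠ 0 := fun h => h ▸ one_ne_zero
  have p0 : ∀ x, (∀ j, x j ∈ IsoV B) → ∀ d y, B.f y (x d) = 0 →
      pv (Function.update x d y) ∈ AS N (pv x) := fun x hx d y hy => by
    obtain ⟨e, he⟩ := H59.WrEnd.exists_ne' hC.t2 d
    refine H59.WrEnd.mem_AS_of hQ (hQ.sing x d (hx d).2) (hQ.sing _ e (by
      rw [Function.update_of_ne he]; exact (hx e).2)) (H59.WrEnd.pol_zero hQ (j := d) (by
        simpa using cm hy)) fun c => ?_
    obtain ⟨m, hm, hme⟩ := hR d x hx y hy c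
    refine ⟨m, hm, fun v => ?_⟩
    rw [hme, neg_one_smul, ← sub_eq_add_neg, add_mulVec, one_mulVec, smul_mulVec,
      H59.WrEnd.pure_update_rf]
  have p1 : ∀ x, (∀ j, x j ∈ IsoV B) → ∀ d a, a d = x d → pv a ∈ AS N (pv x) := by
    intro x hx d a ha
    refine H59.WrEnd.pv_mem _
      (fun j => if j = d then {x d} else {y | y ∈ IsoV B ∧ B.f (x j) y ≠ 0})
      (fun a ha => ?_) a fun j => ?_
    swap
    · split_ifs with h
      · subst h; exact Submodule.subset_span ha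
      · rw [hC.f.sp _ (hx j).1]; trivial
    have had : a d = x d := by simpa using ha d
    have haj : ∀ j, j ≠ d → a j ∈ IsoV B ∧ B.f (x j) (a j) ≠ 0 := fun j hj => by
      simpa [hj] using ha j
    have hai : ∀ j, a j ∈ IsoV B := fun j => by
      by_cases h : j = d
      · rw [h, had]; exact hx d
      · exact (haj j h).1
    obtain ⟨w', hw', e⟩ := hC.f.hyp _ (hx d)
    obtain ⟨v, v', R⟩ := hC.f.frame _ (hx d) w' hw' e
    have v1 := R.vw
    have v0 := R.vv
    refine H59.WrEnd.move hQ (p0 x hx d v v1) (p0 a hai d v (had ▸ v1)) (i₂ := d) (i₃ := d)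
      (i₄ := d) (hai d).2 (had ▸ (hx d).2) (by simpa using v1) (by simpa [had] using cm v1)
      fun j => ?_
    by_cases h : j = d
    · subst h; simpa using v0
    · simpa [Function.update_of_ne h] using cm' (haj j h).2
  have p3 : ∀ x, (∀ j, x j ∈ IsoV B) → ∀ a d, B.f (a d) (x d) = 0 → pv a ∈ AS N (pv x) := by
    intro x hx a d hd
    obtain ⟨e, he⟩ := H59.WrEnd.exists_ne' hC.t2 d
    refine H59.WrEnd.pv_mem _
      (fun j => if j = e then {y | y ∈ IsoV B ∧ B.f (x j) y ≠ 0} else {a j})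
      (fun b hb => ?_) a fun j => ?_
    swap
    · split_ifs with h
      · rw [hC.f.sp _ (hx j).1]; trivial
      · exact Submodule.subset_span rfl
    have hbd : b d = a d := by simpa [he.symm] using hb d
    obtain ⟨h1, h2⟩ : b e ∈ IsoV B ∧ B.f (x e) (b e) ≠ 0 := by simpa using hb e
    set A := Function.update x e (b e) with hA
    have hAi : ∀ j, A j ∈ IsoV B :=
      H59.WrEnd.forall_update (P := fun _ w => w ∈ IsoV B) h1 fun j _ => hx j
    have hAd : A d = x d := Function.update_of_ne he.symm _ _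
    have hAe : A e = b e := Function.update_self _ _ _
    choose z hz using fun j => Wr.exists_f_one (B := B) (hAi j).1
    have k1 := p1 A hAi e b hAe.symm
    have k2 := p1 x hx d A hAd
    have k3 := p1 x hx e (Function.update z e (x e)) (Function.update_self _ _ _)
    have k4 := apply_mem_AS_of_fix (eich_mem_of_AS k1) (eich_apply_of_orth_orth
      (H59.WrEnd.pol_zero hQ (j := d) (hAd ▸ (hx d).2))
      (H59.WrEnd.pol_zero hQ (j := d) (hbd ▸ hd))) k3
    have k5 : polar Q (pv A) (pv (Function.update z e (x e))) ≠ 0 :=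
      H59.WrEnd.pol_ne hQ fun j => by
        by_cases h : j = e
        · subst h; simpa [hAe] using cm' h2
        · simpa [Function.update_of_ne h] using cm' (one (hz j))
    rw [eich_apply (hQ.sing A d (hAi d).2) k1.1, hQ.sing b e h1.2, zero_mul, zero_smul,
      sub_zero] at k4
    have k6 := (AS N (pv x)).sub_mem ((AS N (pv x)).add_mem k3 ((AS N (pv x)).smul_mem
      (polar Q (pv b) (pv (Function.update z e (x e)))) k2)) k4
    rwa [sub_sub_cancel, Submodule.smul_mem_iff _ k5] at k6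
  have full : ∀ x, (∀ j, x j ∈ IsoV B) → Full N (pv x) := fun x hx => by
    choose b hb using fun j => Wr.exists_f_one (B := B) (hx j).1
    exact H59.WrEnd.full_of_pure hQ hb (p3 x hx)
  obtain ⟨w, hw⟩ := hC.f.ex
  obtain ⟨w', hw', hww⟩ := hC.f.hyp w hw
  exact H59.WrEnd.le_of_full hQ (le_trans (by norm_num : 5 ≤ 4 ^ 2)
    (Nat.pow_le_pow_right (by omega) hC.t2))
    (i := ⟨0, by have := hC.t2; omega⟩) hw.2 hw'.2 (fun _ => one hww) (full _ fun _ => hw)
    (full _ fun _ => hw')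

theorem jobO4PW : JobO4PW.{u} := by
  intro rig F _ _ t B M H ql i w hw m hm hf
  refine T4 fun j hj => InC.of_comm (S := {b | ∃ x ∈ IsoV B, ∃ y, B.f y x = 0 ∧ b = eu B x y})
    (fun X hX => H.f.cent X fun x hx y hy => hX _ ⟨x, hx, y, hy, rfl⟩) ?_
  rintro _ ⟨x, hx, y, hy, rfl⟩
  by_cases hn : y ∈ F ∙ x
  · rw [H.f.toO4.eu_one hx hn, map_one, one_mul, mul_one]
  obtain ⟨c, hc, ec⟩ := ((H.f.eich x hx y hy).mono H.gam).em j
  have hc' : InC i (c : EE 4 t F) := ec ▸ InC.em hj.symm _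
  obtain ⟨h1, h2⟩ := pw0 hw.1 (J := pp B w) hw.2 (fun m hm h => sub_mem_LS_pp (H.le hm) h)
    (fun ψ h => by
      obtain ⟨u, rfl⟩ := exists_ph B ψ
      rw [ph_dot] at h
      obtain ⟨s, hs, e⟩ := H.f.eich w hw u (B.eq_zero_comm.1 h)
      refine ⟨s, H.gam hs, fun v hv => ?_⟩
      simp [e, eu, sub_mulVec, add_mulVec, smul_mulVec, Wr.rf_mulVec, mem_pp.1 hv, ph_dot])
    (ql i w hw) hm hf hc hc'
  have cA : InA j (c : EE 4 t F) := ec ▸ InA.em ..
  have e1 : cj m⁻¹ (Wr.em j (eu B x y)) = ((m⁻¹ * c * m * c⁻¹ * c : GG 4 t F) : EE 4 t F) := by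
    rw [← ec, inv_mul_cancel_right, cj_coe, inv_inv]
  obtain ⟨l, h3, -⟩ := rig F t B m⁻¹ j x y H.f.toO4L (inv_mem (H.le hm)) hx hy hn
    (e1 ▸ In.coe.2 (mul_mem (h1.mem_T (by norm_num)) (cA.mem_T (by norm_num))))
  rw [e1] at h3
  by_cases hl : j = l
  · subst hl
    have h4 : InA j ((m⁻¹ * c * m * c⁻¹ * c * c⁻¹ : GG 4 t F) : EE 4 t F) :=
      h3.mul (T4 fun _ hl => (cA.inC hl).inv)
    rw [mul_inv_cancel_right] at h4
    have := eq_one_of_sc hw.1 (h4.sc_of_ne h1 hj) h2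
    rw [mul_inv_eq_one, mul_assoc, inv_mul_eq_iff_eq_mul] at this
    rw [← ec]
    exact congrArg Units.val this
  · have h4 := (h1.inC hj).inv.mul (h3.inC hl)
    rw [← Units.val_mul, inv_mul_cancel_left, ec] at h4
    exact absurd (sc_em.1 ((InA.em j _).sc h4)) (H.f.toO4.not_sc_eu hx hy hn)

theorem jobO4FL : JobO4FL.{u} := by
  intro rig F _ _ t B g l H hg hT
  have k : ∀ w ∈ IsoV B, ∃ j, InA j (cj g (Wr.em l (rf B w w))) := fun w hw => by
    obtain ⟨w', v, v', R⟩ := H.toO4K.fr hw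
    obtain ⟨s, hs, e⟩ := H.eich w hw v R.vw
    exact (rig F t B g l w v H.toO4L hg hw R.vw R.notMem
      ⟨_, hT s hs, by rw [← e, ← coe_emG, cj_coe]⟩).imp fun _ h => h.2
  obtain ⟨w, hw⟩ := H.ex
  obtain ⟨j, hj⟩ := k w hw
  refine ⟨j, nm_of_BB fun X hX => H.sci X fun x hx => ?_⟩
  have m : rf B x x ∈ BB g l j := by
    by_cases h : B.f x w = 0
    · obtain ⟨c, rfl⟩ := Submodule.mem_span_singleton.1 (H.ns w hw x h hx.2)
      rw [H.toO4.rfr, show rf B (c • w) w = c • rf B w w from ro_smul_left ..]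
      exact Subalgebra.smul_mem _ (Subalgebra.smul_mem _ hj _) _
    obtain ⟨j', hj'⟩ := k x hx
    by_cases e : j = j'
    · exact e ▸ hj'
    have h1 := hj'.comm (hj.inC (Ne.symm e))
    rw [← map_mul, ← map_mul, ← map_mul, ← map_mul] at h1
    have h2 := congrArg (cj g⁻¹) h1
    rw [cj_inv_cj, cj_inv_cj, em_inj] at h2
    obtain ⟨z, hz⟩ := Wr.exists_f_one (B := B) hw.1
    have h3 := congrArg (fun Y => B.f (Y *ᵥ z) w) h2
    simp [← mulVec_mulVec, Wr.rf_mulVec, B.smul_left, hw.2, h, H.toO4.sy w x, hz] at h3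
  obtain ⟨z, hz⟩ := Wr.exists_f_one (B := B) hx.1
  have h3 := congrArg (· *ᵥ z) (hX _ m)
  simp only [← mulVec_mulVec, Wr.rf_mulVec, hz, one_smul] at h3
  exact ⟨_, h3⟩

end H29.O4E
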