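import Cfsg.Agent.H60.WrO4Kit
import Cfsg.Agent.H2.CoreFree
import Cfsg.Agent.H1.CoprimeGen

/-! C7-O4 tower, jobs RIG4, KG, KP. -/

set_option autoImplicit false

namespace H29.O4
open _root_.Cfsg Cfsg.Geo Matrix H19 Module H60 H60.Wr

universe u

section
variable {F : Type u} [Field F] {k t : ℕ}

/-- `cpt` as a linear map -/
def cL (i : Fin t) (l : EE k t F →ₗ[F] F) : EE k t F →ₗ[F] Mk k F where
  toFun := cpt i l
  map_add' X Y := by ext r s; simp [cpt, ct_add]
  map_smul' c X := by ext r s; simp [cpt, ct_smul]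

theorem cL_em {i : Fin t} (l : EE k t F →ₗ[F] F) (b : Mk k F) {c : EE k t F} (hc : InC i c) :
    cL i l (Wr.em i b * c) = l c • b := by
  ext r s
  simp [cL, cpt, ct_em_mul hc, mul_comm]

theorem sc_quad {B : Frm (Fin 4) F} (H : O4K B) (s : GL (Fin 4) F) (h : Sc (B.adj s * (s : Mk 4 F))) {α β : F}
    (e : α • ((s : Mk 4 F) * (s : Mk 4 F)) - (s : Mk 4 F) + β • 1 = 0) : Sc (s : Mk 4 F) := by
  obtain ⟨κ, hκ⟩ := id h
  by_cases hβ : β = 0
  · have e1 : α • (s : Mk 4 F) = (1 : F) • 1 := by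
      have := congrArg (· * ((s⁻¹ : GL (Fin 4) F) : Mk 4 F)) e
      simpa [hβ, sub_mul, mul_assoc, sub_eq_zero] using this
    exact Sc.of_smul (fun h0 => by simp [h0] at e1) ⟨1, e1⟩
  have e1 : β • B.adj s = κ • 1 - (α * κ) • (s : Mk 4 F) := by
    have := congrArg (B.adj s * ·) e
    simp only [mul_add, mul_sub, Matrix.mul_smul, ← mul_assoc, hκ, Matrix.smul_mul, one_mul, mul_one, mul_zero,
      smul_smul] at this
    rw [← sub_eq_zero, ← this]; abel
  have e2 := congrArg B.adj e1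
  rw [H.toO4.adj_smul, B.adj_sub, H.toO4.adj_smul, H.toO4.adj_smul, B.adj_adj, B.adj_one] at e2
  by_cases h1 : α * κ = β
  · exact H.sim _ h (Sc.of_smul hβ ⟨κ, by rw [smul_add, e1, h1]; abel⟩)
  by_cases h2 : α * κ = -β
  · have e3 : ((2 : F) * κ) • (1 : Mk 4 F) = 0 := by
      rw [h2] at e1 e2
      linear_combination (norm := module) -e1 - e2
    have e4 : κ = 0 := by simpa [H.two] using e3
    refine ⟨0, ?_⟩
    rw [zero_smul, ← B.adj_eq_zero]
    rw [e4, zero_smul] at hκ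
    exact s.isUnit.mul_left_eq_zero.1 hκ
  · refine Sc.of_smul (r := (β - α * κ) * (β + α * κ))
      (mul_ne_zero (sub_ne_zero.2 (Ne.symm h1)) fun h => h2 (by linear_combination h)) ⟨β * κ - α * κ * κ, ?_⟩
    linear_combination (norm := module) β • e2 - (α * κ) • e1

end

theorem jobO4Rig4 : JobO4Rig4.{u} := by
  intro F _ _ t B y i ε H hy hn hε e
  obtain ⟨s, d, hd, rfl, hs⟩ := sim_split hy hn
  have e2 : ((emG i s * d * (emG i s * d) : GG 4 t F) : EE 4 t F) = Wr.em i ((s : Mk 4 F) * (s : Mk 4 F)) * ((d : EE 4 t F) * (d : EE 4 t F)) := by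
    rw [Units.val_mul, Units.val_mul, coe_emG, em_mul_mul _ _ _ hd]
  rw [e2] at e ⊢
  by_cases h1 : Sc ((d : EE 4 t F) * (d : EE 4 t F))
  · exact .inr ((InA.em ..).mul (h1.inA i))
  refine .inl ((Sc.inC (sc_em.2 ?_) i).mul (hd.mul hd))
  obtain ⟨l, l1, l2⟩ := H62.exists_dual_eq_one (W := F ∙ (1 : EE 4 t F)) (x := (d : EE 4 t F) * (d : EE 4 t F)) fun hb => by
    obtain ⟨c, hc⟩ := Submodule.mem_span_singleton.1 hb; exact h1 ⟨c, hc.symm⟩
  have e3 := congrArg (cL i l) e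
  rw [Units.val_mul, coe_emG, sub_mul, mul_add, smul_mul_assoc, em_mul_mul _ _ _ hd, mul_one, one_mul,
    show (1 : EE 4 t F) = Wr.em i 1 * 1 by simp] at e3
  simp only [map_add, map_sub, map_smul, map_zero, cL_em l _ hd, cL_em l _ (hd.mul hd), cL_em l _ (hd.mul (hd.mul hd)),
    cL_em l _ InC.one, l1, l2 1 (Submodule.mem_span_singleton_self _), one_smul, zero_smul, add_zero, smul_smul] at e3
  obtain ⟨c, hc⟩ := sc_quad H.toO4K s hs (α := ε * l ((d : EE 4 t F) * ((d : EE 4 t F) * (d : EE 4 t F)))) (β := ε * l d) (by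
    have := congrArg (((s⁻¹ : GL (Fin 4) F) : Mk 4 F) * ·) e3
    simp only [mul_add, mul_sub, Matrix.mul_smul, Units.inv_mul_cancel_left, Units.inv_mul, mul_zero] at this
    rw [← this]; abel)
  exact ⟨c * c, by rw [hc, smul_mul_smul_comm, one_mul]⟩

theorem jobO4KG : JobO4KG.{u} := by
  intro F _ _ t B G K R j H hj hKG hn hu
  obtain ⟨p, hp⟩ := CharP.exists F
  have hpp : Fact p.Prime := ⟨CharP.char_is_prime F p⟩
  have O : O4 B := H.f.toO4
  obtain ⟨w, hw⟩ := H.f.ex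
  obtain ⟨w', v, v', Q⟩ := H.f.toO4K.fr hw
  have y0 : ∀ x : F × F, B.f (x.1 • v + x.2 • v') w = 0 := fun x => by
    rw [B.add_left, B.smul_left, B.smul_left, Q.vw, Q.uw]; simp
  have y1 : ∀ x : F × F, x ≠ 0 → x.1 • v + x.2 • v' ∉ F ∙ w := fun x hx h => by
    obtain ⟨c, hc⟩ := Submodule.mem_span_singleton.1 h
    have h1 := congrArg (B.f · v) hc
    have h2 := congrArg (B.f · v') hc
    simp only [B.add_left, B.smul_left, O.sy w v, O.sy w v', O.sy v' v, Q.vw, Q.uw, Q.vu, mul_zero, add_zero,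
      zero_add] at h1 h2
    exact hx (Prod.ext ((mul_eq_zero.1 h1.symm).resolve_right Q.vv) ((mul_eq_zero.1 h2.symm).resolve_right Q.uu))
  choose U hU eU using fun x : F × F => H.f.eich w hw _ (y0 x)
  let f : Multiplicative (F × F) →* GG 4 t F := (emG j).comp (MonoidHom.mk' (fun s => U s.toAdd) fun a b =>
    Units.ext (by
      rw [Units.val_mul, eU, eU, eU, O.eu_add hw.2 (y0 _) (y0 _)]
      congr 1
      simp only [toAdd_mul, Prod.fst_add, Prod.snd_add, add_smul]; abel))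
  have ef : ∀ s, (f s : EE 4 t F) = Wr.em j (eu B w (s.toAdd.1 • v + s.toAdd.2 • v')) := fun s =>
    (coe_emG ..).trans (congrArg _ (eU _))
  have hf : Function.Injective f := (injective_iff_map_eq_one f).2 fun s e => by
    by_contra h
    exact O.not_sc_eu hw (y0 _) (y1 s.toAdd h) (sc_em.1 (by rw [← ef, e]; exact Sc.one))
  have hc : ∀ s, s ≠ 1 → ∀ x ∈ K, f s * x = x * f s → x ∈ TT 4 t F := fun s h x hx e => by
    refine H.ru x (hKG hx) j hj w hw _ (y0 s.toAdd) (y1 _ h) (In.of_inA (M := ⊤) (i := j) (by norm_num) ?_ ?_) <;>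
      rw [← ef, show cj x (f s : EE 4 t F) = f s from
        congrArg Units.val (mul_inv_eq_iff_eq_mul.2 e.symm : x * f s * x⁻¹ = f s)]
    · exact In.coe.2 trivial
    · exact ef s ▸ InA.em ..
  have h4 : ∀ s, f s ^ p = 1 := fun s => by
    rw [← map_pow, ← map_one f]
    exact congrArg f (congrArg Multiplicative.ofAdd (by ext <;> simp : p • s.toAdd = 0))
  have h5 : f.range ≤ Subgroup.normalizer (K : Set (GG 4 t F)) := H1.le_normalizer_of_conj_mem (by
    rintro _ ⟨s, rfl⟩ x hx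
    exact hn _ (hU _) x hx)
  have hA : IsPGroup p f.range := fun ⟨_, s, rfl⟩ => ⟨1, Subtype.ext (by simpa using h4 s)⟩
  have hK : ¬ p ∣ Nat.card K := fun hd => by
    obtain ⟨x, hx⟩ := exists_prime_orderOf_dvd_card' p
      (((H2.card_modEq_card_inf_centralizer hA h5).dvd_iff dvd_rfl).1 hd)
    have h6 : (x : GG 4 t F) ^ p = 1 := by rw [← Subgroup.coe_pow, ← hx, pow_orderOf_eq_one, Subgroup.coe_one]
    have h7 := hu x x.2.1 (hc (Multiplicative.ofAdd (1, 0)) (by simp) x x.2.1 (x.2.2 _ ⟨_, rfl⟩)) ⟨p, by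
      rw [sub_pow_char_of_commute p (Commute.one_right _), ← Units.val_pow_eq_pow_val, h6]
      simp⟩
    exact hpp.out.one_lt.ne' (by rw [← hx, show x = 1 from Subtype.ext h7, orderOf_one])
  refine H1.le_of_noncyclic_centralizer_le (A := f.range) (fun hcy => ?_) h5
    (H1.coprime_card_of_isPGroup hA ((Nat.Prime.coprime_iff_not_dvd hpp.out).2 hK).symm).symm _ ?_
  · have h7 : Nat.card f.range ∣ p := by
      rw [← IsCyclic.exponent_eq_card]
      exact Monoid.exponent_dvd_of_forall_pow_eq_one fun ⟨_, s, rfl⟩ => Subtype.ext (h4 s)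
    rw [← Nat.card_congr (MonoidHom.ofInjective hf).toEquiv, Nat.card_congr Multiplicative.toAdd, Nat.card_prod] at h7
    have h8 : 1 < Nat.card F := Finite.one_lt_card
    rcases hpp.out.eq_one_or_self_of_dvd _ h7 with e | e
    · nlinarith
    · exact Nat.not_prime_mul h8.ne' h8.ne' (e ▸ hpp.out)
  · rintro _ ⟨s, rfl⟩ h7 x hx
    exact hc _ (fun e => h7 (by rw [e, map_one])) x hx.1 (Subgroup.mem_centralizer_singleton_iff.1 hx.2).symm

set_option maxHeartbeats 1600000 in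
theorem jobO4KP : JobO4KP.{u} := by
  intro kg F _ _ t B G R H ⟨a₁, h₁, a₂, h₂, h12⟩ i hi a b c d O g hg e1 e2
  obtain ⟨j, hj, hji⟩ : ∃ j ∈ R, i ≠ j := by
    by_cases h : i = a₁
    exacts [⟨a₂, h₂, h ▸ h12⟩, ⟨a₁, h₁, h⟩]
  generalize hp : pj B c d = p at e1 e2
  have p0 : p ≠ 0 := hp ▸ O.pj_ne
  have ns : ¬ Sc p := hp ▸ O.not_sc
  let K : Subgroup (GG 4 t F) :=
    { carrier := {x | x ∈ G ∧ ∃ ε : F, ε * ε = 1 ∧ (x : EE 4 t F) * Wr.em i p = ε • Wr.em i p ∧
        Wr.em i p * (x : EE 4 t F) = ε • Wr.em i p}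
      one_mem' := ⟨G.one_mem, 1, by simp⟩
      mul_mem' := by
        rintro x y ⟨hx, ε, a1, a2, a3⟩ ⟨hy, δ, b1, b2, b3⟩
        refine ⟨G.mul_mem hx hy, ε * δ, by linear_combination δ * δ * a1 + b1, ?_, ?_⟩
        · rw [Units.val_mul, mul_assoc, b2, mul_smul_comm, a2, smul_smul, mul_comm]
        · rw [Units.val_mul, ← mul_assoc, a3, smul_mul_assoc, b3, smul_smul]
      inv_mem' := by
        rintro x ⟨hx, ε, a1, a2, a3⟩
        refine ⟨G.inv_mem hx, ε, a1, ?_, ?_⟩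
        · rw [Units.inv_mul_eq_iff_eq_mul, mul_smul_comm, a2, smul_smul, a1, one_smul]
        · rw [Units.mul_inv_eq_iff_eq_mul, smul_mul_assoc, a3, smul_smul, a1, one_smul] }
  have nm : ∀ x ∈ K, x ∈ TT 4 t F → Nm x i i := fun x ⟨_, ε, _, a2, a3⟩ hT => nm_of_cj hT ns (by
    rw [show cj x (Wr.em i p) = Wr.em i p from (Units.mul_inv_eq_iff_eq_mul _).2 (a2.trans a3.symm)]; exact InA.em ..)
  have hK := kg F t B G K R j H hj (fun _ h => h.1) (fun s hs x ⟨hx, ε, a1, a2, a3⟩ => by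
    have c1 := InC.emG (F := F) hji s p
    have c2 := (InC.emG (F := F) hji s).inv p
    refine ⟨G.mul_mem (G.mul_mem (H.mem j hj s hs) hx) (G.inv_mem (H.mem j hj s hs)), ε, a1, ?_, ?_⟩
    · rw [Units.val_mul, Units.val_mul, mul_assoc, ← c2, ← mul_assoc, mul_assoc _ (x : EE 4 t F), a2, mul_smul_comm, ← c1,
        smul_mul_assoc, Units.mul_inv_cancel_right]
    · rw [Units.val_mul, Units.val_mul, ← mul_assoc, ← mul_assoc, c1, mul_assoc _ _ (x : EE 4 t F), a3, mul_smul_comm,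
        ← c1, smul_mul_assoc, Units.mul_inv_cancel_right]) fun x hx hT hn => by
    obtain ⟨w, hw, v, hv, y, hy, e⟩ := unip_split H.f.toO4L (H.le hx.1) hn (nm x hx hT)
    obtain ⟨-, ε, a1, a2, a3⟩ := hx
    obtain ⟨n, hn⟩ := hn
    have h1 : ∀ m : ℕ, ((x : EE 4 t F) - 1) ^ m * Wr.em i p = (ε - 1) ^ m • Wr.em i p := fun m => by
      induction m with
      | zero => simp
      | succ m ih => rw [pow_succ, mul_assoc, sub_mul, a2, one_mul, pow_succ', mul_smul, ← ih, sub_smul, one_smul,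
          mul_sub, mul_smul_comm]
    obtain rfl : ε = 1 := by
      have := h1 n
      rw [hn, zero_mul, eq_comm, smul_eq_zero, em_eq_zero] at this
      exact sub_eq_zero.1 (pow_eq_zero_iff'.1 (this.resolve_right p0)).1
    have h2 : Wr.em i (eu B w v * p - p * eu B w v) * (y : EE 4 t F) = 0 := by
      rw [map_sub, map_mul, map_mul, sub_mul, mul_assoc, mul_assoc, hy p, ← mul_assoc, ← e, a2, a3, sub_self]
    rw [H.f.toO4.eu_one hw (H.f.uz a b c d O w hw v hv (hp ▸ sub_eq_zero.1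
      ((T2 hy h2).resolve_right y.ne_zero))), map_one, one_mul] at e
    exact Units.ext (e.trans (em_cancel p0 hy InC.one (by rw [← e, a3, one_smul, Units.val_one, mul_one])))
  have gK : g ∈ K := ⟨hg, e2.elim (fun e => ⟨1, by simp [← e1, e]⟩) fun e => ⟨-1, by simp [← e1, e]⟩⟩
  obtain ⟨s, y, hy, rfl⟩ := (nm g gK (hK gK)).exists_eq
  obtain ⟨-, ε, -, a2, -⟩ := gK
  obtain ⟨l, l1, -⟩ := H62.exists_dual_eq_one (W := (⊥ : Submodule F (Mk 4 F))) (x := (s : Mk 4 F) * p) (by simpa using p0)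
  obtain ⟨L, -, hL⟩ := exists_lam i l
  have h3 := hL ((s : Mk 4 F) * p) y hy
  have e3 : Wr.em i ((s : Mk 4 F) * p) * (y : EE 4 t F) = ε • (Wr.em i p * 1) := by
    rw [map_mul, mul_assoc, hy p, ← mul_assoc, mul_one, ← a2, Units.val_mul, coe_emG]
  rw [e3, map_smul, hL p 1 InC.one, l1, one_smul, smul_smul] at h3
  exact (InA.em i s).mul (Sc.inA ⟨_, h3.symm⟩ i)

end H29.O4
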