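/- Direct powers of a non-abelian simple group: automorphisms and subdirect products. -/
import Cfsg.Agent.H89.MinNormal

set_option autoImplicit false

namespace H29.Scott
open Subgroup
open scoped commutatorElement

variable {T ι : Type*} [Group T] [IsSimpleGroup T] [Fintype ι] [DecidableEq ι]

theorem comm_top (hT : ¬ IsMulCommutative T) : ⁅(⊤ : Subgroup T), (⊤ : Subgroup T)⁆ = ⊤ :=
  (Normal.eq_bot_or_eq_top inferInstance).resolve_left fun h => hT ⟨⟨fun a b =>
    commutatorElement_eq_one_iff_mul_comm.1 (mem_bot.1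
      (h ▸ commutator_mem_commutator (mem_top a) (mem_top b)))⟩⟩

omit [IsSimpleGroup T] in
theorem eq_top_of_single {Y : Subgroup (ι → T)} (h : ∀ i t, Pi.mulSingle i t ∈ Y) : Y = ⊤ := by
  rw [eq_top_iff]; intro x _
  rw [← Finset.noncommProd_mulSingle x]
  exact noncommProd_mem _ _ fun i _ => h i _

omit [Fintype ι] [DecidableEq ι] in
/-- the projection of a subgroup normalized by a subdirect product -/
theorem proj_cases {D A : Subgroup (ι → T)} {i : ι} (hD : ∀ t, ∃ d ∈ D, d i = t)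
    (hA : ∀ d ∈ D, ∀ a ∈ A, d * a * d⁻¹ ∈ A) : (∀ a ∈ A, a i = 1) ∨ ∀ t, ∃ a ∈ A, a i = t := by
  have : (A.map (Pi.evalMonoidHom (fun _ => T) i)).Normal := ⟨by
    rintro _ ⟨a, ha, rfl⟩ t
    obtain ⟨d, hd, rfl⟩ := hD t
    exact ⟨_, hA d hd a ha, rfl⟩⟩
  refine this.eq_bot_or_eq_top.imp (fun h a ha => ?_) fun h t => ?_
  · exact mem_bot.1 (h ▸ mem_map_of_mem _ ha)
  · exact (h ▸ mem_top t : t ∈ A.map (Pi.evalMonoidHom (fun _ => T) i))

/-- Scott: if the coordinate `i` is independent of each other one then `D` contains factor `i` -/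
theorem single_mem (hT : ¬ IsMulCommutative T) {D : Subgroup (ι → T)} {i : ι}
    (hD : ∀ t, ∃ d ∈ D, d i = t) (h : ∀ j, j ≠ i → ∃ d ∈ D, d j = 1 ∧ d i ≠ 1) (t : T) :
    Pi.mulSingle i t ∈ D := by
  let M : Finset ι → Subgroup (ι → T) := fun S =>
    D ⊓ ⨅ j ∈ S, (Pi.evalMonoidHom (fun _ => T) j).ker
  have mM : ∀ S x, x ∈ M S ↔ x ∈ D ∧ ∀ j ∈ S, x j = 1 := fun S x => by
    simp [M, mem_iInf]
  have key : ∀ S : Finset ι, i ∉ S → ∀ t, ∃ d ∈ M S, d i = t := by
    intro S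
    induction S using Finset.induction_on with
    | empty => exact fun _ t => (hD t).imp fun d hd => ⟨(mM _ _).2 ⟨hd.1, by simp⟩, hd.2⟩
    | insert j S _ ih =>
      intro hi t
      rw [Finset.mem_insert, not_or] at hi
      have h1 := (proj_cases (A := M {j}) hD fun d hd a ha => (mM _ _).2 ⟨mul_mem (mul_mem hd
        ((mM _ _).1 ha).1) (inv_mem hd), fun k hk => by simp [((mM _ _).1 ha).2 k hk]⟩).resolve_left
        fun e => by
          obtain ⟨d, hd, h1, h2⟩ := h j (Ne.symm hi.1)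
          exact h2 (e d ((mM _ _).2 ⟨hd, by simpa using h1⟩))
      have h2 : ⁅(⊤ : Subgroup T), (⊤ : Subgroup T)⁆ ≤
          (M (insert j S)).map (Pi.evalMonoidHom (fun _ => T) i) := commutator_le.2 fun a _ b _ => by
        obtain ⟨x, hx, rfl⟩ := ih hi.2 a
        obtain ⟨y, hy, rfl⟩ := h1 b
        rw [mM] at hx hy
        refine ⟨⁅x, y⁆, (mM _ _).2 ⟨mul_mem (mul_mem (mul_mem hx.1 hy.1) (inv_mem hx.1))
          (inv_mem hy.1), fun k hk => ?_⟩, rfl⟩
        rcases Finset.mem_insert.1 hk with rfl | hk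
        · simp [commutatorElement_def, hy.2 k (by simp)]
        · simp [commutatorElement_def, hx.2 k hk]
      exact h2 ((comm_top hT).ge (mem_top t))
  obtain ⟨d, hd, e⟩ := key (Finset.univ.erase i) (by simp) t
  rw [mM] at hd
  convert hd.1 using 1
  funext j
  by_cases hj : j = i
  · rw [hj, Pi.mulSingle_eq_same, e]
  · rw [Pi.mulSingle_eq_of_ne hj, hd.2 j (by simp [hj])]

theorem exists_ker (hT : ¬ IsMulCommutative T) {Y : Subgroup (ι → T)} (hY : Y.Normal)
    (h : Y ≠ ⊤) : ∃ j, ∀ y ∈ Y, y j = 1 := by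
  by_contra! hh
  refine h (eq_top_of_single fun i t => ?_)
  have h1 := (proj_cases (D := ⊤) (A := Y) (i := i) (fun t => ⟨fun _ => t, trivial, rfl⟩)
    fun d _ a ha => hY.conj_mem a ha d).resolve_left fun e => by
      obtain ⟨y, hy, h⟩ := hh i; exact h (e y hy)
  have h2 : ⁅(⊤ : Subgroup T), (⊤ : Subgroup T)⁆ ≤ Y.comap (MonoidHom.mulSingle (fun _ => T) i) :=
    commutator_le.2 fun a _ b _ => by
      obtain ⟨y, hy, rfl⟩ := h1 a
      have := mul_mem hy (hY.conj_mem _ (inv_mem hy) (Pi.mulSingle i b))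
      convert this using 1
      show Pi.mulSingle i _ ∈ Y ↔ _
      congr! 1
      funext j
      by_cases hj : j = i
      · subst hj; simp [commutatorElement_def, mul_assoc]
      · simp [Pi.mulSingle_eq_of_ne hj]
  exact h2 ((comm_top hT).ge (mem_top t))

omit [IsSimpleGroup T] [Fintype ι] [DecidableEq ι] in
/-- two onto coordinates with the same kernel differ by an automorphism -/
theorem exists_aut {G : Type*} [Group G] {f g : G →* T} (hf : Function.Surjective f)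
    (hg : Function.Surjective g) (h : ∀ x, f x = 1 ↔ g x = 1) :
    ∃ φ : MulAut T, ∀ x, g x = φ (f x) := by
  have e : f.ker = g.ker := Subgroup.ext h
  refine ⟨(QuotientGroup.quotientKerEquivOfSurjective f hf).symm.trans
    ((QuotientGroup.quotientMulEquivOfEq e).trans
      (QuotientGroup.quotientKerEquivOfSurjective g hg)), fun x => ?_⟩
  have : (QuotientGroup.quotientKerEquivOfSurjective f hf).symm (f x) = x :=
    (MulEquiv.symm_apply_eq _).2 rfl
  rw [MulEquiv.trans_apply, this]; rfl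

omit [Fintype ι] in
theorem idx_eq {i j : ι} (h : ∀ x : ι → T, x i = 1 → x j = 1) : i = j := by
  obtain ⟨t, ht⟩ := exists_ne (1 : T)
  by_contra e
  exact ht (by simpa using h (Pi.mulSingle j t) (by simp [e]))

/-- automorphisms permute the coordinates -/
theorem aut_coord (hT : ¬ IsMulCommutative T) (α : MulAut (ι → T)) (j : ι) :
    ∃ i, ∃ φ : MulAut T, ∀ x, α x j = φ (x i) := by
  have key : ∀ (α : MulAut (ι → T)) (j : ι), ∃ i, ∀ x, α x j = 1 → x i = 1 := fun α j =>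
    exists_ker hT (Y := ((Pi.evalMonoidHom (fun _ => T) j).comp α.toMonoidHom).ker) inferInstance
      fun e => by
        obtain ⟨t, ht⟩ := exists_ne (1 : T)
        have : α (α.symm fun _ => t) j = 1 := (e ▸ mem_top _ : α.symm (fun _ => t) ∈
          ((Pi.evalMonoidHom (fun _ => T) j).comp α.toMonoidHom).ker)
        exact ht (by simpa using this)
  obtain ⟨i, hi⟩ := key α j
  obtain ⟨j', hj⟩ := key α⁻¹ i
  obtain rfl : j = j' := idx_eq (T := T) fun y hy => hj y (hi _ (by simpa using hy))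
  exact ⟨i, exists_aut (f := Pi.evalMonoidHom (fun _ => T) i)
    (g := (Pi.evalMonoidHom (fun _ => T) j).comp α.toMonoidHom) (fun t => ⟨fun _ => t, rfl⟩)
    (fun t => ⟨α.symm fun _ => t, by simp⟩) fun x => ⟨fun h => hj (α x) (by simpa using h), hi x⟩⟩

/-- an operator group without proper invariant normal subgroup is transitive on coordinates -/
theorem all_or_none (hT : ¬ IsMulCommutative T) {𝒜 : Subgroup (MulAut (ι → T))}
    (hmin : ∀ Y : Subgroup (ι → T), Y.Normal → (∀ α ∈ 𝒜, ∀ y ∈ Y, α y ∈ Y) → Y = ⊥ ∨ Y = ⊤)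
    (I : ι → Prop) (hI : ∀ α ∈ 𝒜, ∀ i j, ∀ φ : MulAut T, (∀ x, α x j = φ (x i)) → I j → I i) :
    (∀ i, I i) ∨ ∀ i, ¬ I i := by
  let Y : Subgroup (ι → T) := ⨅ j : {j // I j}, (Pi.evalMonoidHom (fun _ => T) j.1).ker
  have mY : ∀ x, x ∈ Y ↔ ∀ j, I j → x j = 1 := fun x => by simp [Y, mem_iInf]
  obtain ⟨t, ht⟩ := exists_ne (1 : T)
  refine (hmin Y ⟨fun y hy g => (mY _).2 fun j hj => by simp [(mY _).1 hy j hj]⟩
    fun α hα y hy => (mY _).2 fun j hj => ?_).imp (fun h i => ?_) fun h i hi => ?_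
  · obtain ⟨i, φ, e⟩ := aut_coord hT α j
    rw [e, (mY _).1 hy i (hI α hα i j φ e hj), map_one]
  · by_contra hi
    have : Pi.mulSingle i t ∈ Y := (mY _).2 fun j hj => by
      have : j ≠ i := fun e => hi (e ▸ hj)
      simp [this]
    rw [h, mem_bot] at this
    exact ht (by simpa using congrFun this i)
  · exact ht ((mY fun _ => t).1 (h ▸ mem_top _) i hi)

theorem core [Nonempty ι] (hT : ¬ IsMulCommutative T) {𝒜 : Subgroup (MulAut (ι → T))}
    {D : Subgroup (ι → T)} (hD : ∀ α ∈ 𝒜, ∀ d ∈ D, α d ∈ D) (hne : D ≠ ⊤)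
    (hmax : ∀ Y : Subgroup (ι → T), D ≤ Y → (∀ α ∈ 𝒜, ∀ y ∈ Y, α y ∈ Y) → Y = D ∨ Y = ⊤)
    (hmin : ∀ Y : Subgroup (ι → T), Y.Normal → (∀ α ∈ 𝒜, ∀ y ∈ Y, α y ∈ Y) → Y = ⊥ ∨ Y = ⊤) :
    (∃ K : ι → Subgroup T, (∀ i, K i ≠ ⊤) ∧ ∀ x, x ∈ D ↔ ∀ i, x i ∈ K i) ∨
    ∃ (ψ : ι → MulAut T) (k : ℕ) (c : ι → ι), 2 ≤ k ∧
      (∀ j, Nat.card {i // c i = j} = k ∨ Nat.card {i // c i = j} = 0) ∧
      ∀ x, x ∈ D ↔ ∀ i j, c i = c j → ψ i (x i) = ψ j (x j) := by
  obtain ⟨i₀⟩ := ‹Nonempty ι›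
  obtain ⟨t₀, ht₀⟩ := exists_ne (1 : T)
  have back : ∀ α ∈ 𝒜, ∀ d ∈ D, ∃ d' ∈ D, α d' = d := fun α hα d hd =>
    ⟨_, hD _ (inv_mem hα) d hd, by simp⟩
  rcases all_or_none hT hmin (fun i => ∀ t, ∃ d ∈ D, d i = t) (fun α hα i j φ e h t => by
    obtain ⟨d, hd, e1⟩ := h (φ t)
    obtain ⟨d, hd', rfl⟩ := back α hα d hd
    exact ⟨d, hd', φ.injective (by rw [← e, e1])⟩) with hall | hno
  swap
  · left
    refine ⟨fun i => D.map (Pi.evalMonoidHom (fun _ => T) i), fun i h => hno i fun t =>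
      h.ge (mem_top t), fun x => ?_⟩
    rcases hmax (pi Set.univ fun i => D.map (Pi.evalMonoidHom (fun _ => T) i))
      (fun d hd i _ => ⟨d, hd, rfl⟩) (fun α hα y hy j _ => by
        obtain ⟨i, φ, e⟩ := aut_coord hT α j
        obtain ⟨d, hd, e1⟩ := hy i trivial
        exact ⟨α d, hD α hα d hd, by rw [e, ← e1]; exact e d⟩) with h | h
    · nth_rw 1 [← h]; simp [mem_pi]
    · exact absurd (fun t => (h.ge (mem_top fun _ => t)) i₀ trivial) (hno i₀)
  right
  let s : Setoid ι := ⟨fun i j => ∀ d ∈ D, d i = 1 ↔ d j = 1, fun _ _ _ => Iff.rfl,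
    fun h d hd => (h d hd).symm, fun h h' d hd => (h d hd).trans (h' d hd)⟩
  let c : ι → ι := fun i => (Quotient.mk s i).out
  have hc : ∀ i j, c i = c j ↔ s i j := fun i j => by
    simp only [c, Quotient.out_inj]; exact Quotient.eq
  have hc' : ∀ i, s i (c i) := fun i => s.symm (Quotient.mk_out i)
  choose ψ hψ using fun i => exists_aut (f := (Pi.evalMonoidHom (fun _ => T) i).comp D.subtype)
    (g := (Pi.evalMonoidHom (fun _ => T) (c i)).comp D.subtype)
    (fun t => (hall i t).elim fun d h => ⟨⟨d, h.1⟩, h.2⟩)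
    (fun t => (hall (c i) t).elim fun d h => ⟨⟨d, h.1⟩, h.2⟩) fun d => hc' i d d.2
  have hψ' : ∀ i, ∀ d ∈ D, ψ i (d i) = d (c i) := fun i d hd => (hψ i ⟨d, hd⟩).symm
  have tr : ∀ α ∈ 𝒜, ∀ i j i' j', ∀ φ φ' : MulAut T, (∀ x, α x j = φ (x i)) →
      (∀ x, α x j' = φ' (x i')) → (s j j' ↔ s i i') := fun α hα i j i' j' φ φ' e e' =>
    ⟨fun h d hd => by simpa [e, e'] using h _ (hD α hα d hd), fun h d hd => by
      obtain ⟨d, hd', rfl⟩ := back α hα d hd
      simpa [e, e'] using h d hd'⟩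
  let Δ : Subgroup (ι → T) :=
    { carrier := {x | ∀ i j, c i = c j → ψ i (x i) = ψ j (x j)}
      one_mem' := fun i j _ => by simp
      mul_mem' := fun ha hb i j h => by simp [ha i j h, hb i j h]
      inv_mem' := fun ha i j h => by simp [ha i j h] }
  have hle : D ≤ Δ := fun d hd i j h => by rw [hψ' i d hd, hψ' j d hd, h]
  obtain ⟨a, b, hab, hs⟩ : ∃ a b, a ≠ b ∧ s a b := by
    by_contra! hh
    refine hne (eq_top_of_single fun i => single_mem hT (hall i) fun j hj => ?_)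
    by_contra! h1
    refine hh j i hj fun d hd => ⟨h1 d hd, fun h2 => ?_⟩
    rcases proj_cases (A := D ⊓ (Pi.evalMonoidHom (fun _ => T) i).ker) (hall j)
      (fun d hd a ha => ⟨D.mul_mem (D.mul_mem hd ha.1) (D.inv_mem hd), by
        have : a i = 1 := ha.2
        simp [this]⟩) with h | h
    · exact h d ⟨hd, h2⟩
    · obtain ⟨x, hx, e⟩ := hall i t₀
      obtain ⟨y, hy, e'⟩ := h (x j)
      have h3 : y i = 1 := hy.2
      have := h1 _ (mul_mem hx (inv_mem hy.1)) (by simp [e'])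
      simp [h3, e, ht₀] at this
  have hΔ : Δ = D := (hmax Δ hle fun α hα y hy j j' h => by
    obtain ⟨i, φ, e⟩ := aut_coord hT α j
    obtain ⟨i', φ', e'⟩ := aut_coord hT α j'
    have h1 := (hc _ _).2 ((tr α hα i j i' j' φ φ' e e').1 ((hc _ _).1 h))
    obtain ⟨d, hd, e1⟩ := hall i (y i)
    have e2 : d i' = y i' := (ψ i').injective (by rw [← hy i i' h1, ← e1, hle hd i i' h1])
    rw [e, e', ← e1, ← e2, ← e, ← e']
    exact hle (hD α hα d hd) j j' h).resolve_right fun h => by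
      have := (h.ge (mem_top (Pi.mulSingle a t₀))) a b ((hc _ _).2 hs)
      simp [hab.symm, ht₀] at this
  have hk := (all_or_none hT hmin (fun i => Nat.card {x // s x i} = Nat.card {x // s x a})
    fun α hα i j φ e h => by
      rw [← h]
      choose σ θ hσ using aut_coord hT α
      have inj : Function.Injective σ := fun u v huv => idx_eq (T := T) fun x hx => by
        obtain ⟨x, rfl⟩ := α.surjective x
        rw [hσ, map_eq_one_iff _ (θ u).injective, huv] at hx
        rw [hσ, hx, map_one]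
      exact (Nat.card_congr ((Equiv.ofBijective σ (Finite.injective_iff_bijective.1 inj)).subtypeEquiv
        fun x => tr α hα _ x i j _ φ (hσ x) e)).symm).resolve_right fun h => h a rfl
  refine ⟨ψ, Nat.card {x // s x a}, c, ?_, fun j => ?_, fun x => by rw [← hΔ]; rfl⟩
  · haveI : Nontrivial {x // s x a} := ⟨⟨⟨a, s.refl a⟩, ⟨b, s.symm hs⟩, fun h => hab (congrArg Subtype.val h)⟩⟩
    exact Finite.one_lt_card
  · by_cases h : ∃ i, c i = j
    · obtain ⟨i, rfl⟩ := h
      exact .inl ((Nat.card_congr (Equiv.subtypeEquivRight fun x => hc x i)).trans (hk i))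
    · haveI : IsEmpty {i // c i = j} := ⟨fun x => h ⟨x.1, x.2⟩⟩
      exact .inr Nat.card_of_isEmpty

end H29.Scott
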