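/- The core of the O'Nan–Scott theorem for a maximal subgroup. -/
import Cfsg.Agent.H29.Scott

set_option autoImplicit false

namespace H29.Scott
open Subgroup

/-- A maximal subgroup `K` not containing the non-abelian minimal normal subgroup `N`. -/
theorem ons {H : Type*} [Group H] [Finite H] (N K : Subgroup H) [hn : N.Normal] (hK : IsCoatom K)
    (hNK : ¬ N ≤ K) (hmin : ∀ M : Subgroup H, M.Normal → M ≤ N → M = ⊥ ∨ M = N)
    (hnab : ¬ IsMulCommutative N) :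
    ∃ (T : Type) (_ : Group T) (m : ℕ) (e : N ≃* (Fin m → T)), IsSimpleGroup T ∧
      ¬ IsMulCommutative T ∧ 0 < m ∧ ((∃ L : Fin m → Subgroup T, (∀ i, L i ≠ ⊤) ∧
        ∀ n : N, (n : H) ∈ K ↔ ∀ i, e n i ∈ L i) ∨ (∃ (k : ℕ) (c : Fin m → Fin m), 2 ≤ k ∧
        (∀ j : Fin m, Nat.card {i : Fin m // c i = j} = k ∨ Nat.card {i : Fin m // c i = j} = 0) ∧
        ∀ n : N, (n : H) ∈ K ↔ ∀ i j : Fin m, c i = c j → e n i = e n j)) := by
  obtain ⟨T, _, m, hs, hm, ⟨e⟩⟩ := H89.IsMinNormal.exists_pow_simple (N := N)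
    ⟨hn, fun h => hNK (h ▸ bot_le), hmin⟩
  have hT : ¬ IsMulCommutative T := fun h => hnab ⟨⟨fun a b => e.injective (by
    rw [map_mul, map_mul]; funext i; exact h.is_comm.comm _ _)⟩⟩
  haveI : Nonempty (Fin m) := ⟨⟨0, hm⟩⟩
  let Φ : H →* MulAut (Fin m → T) := (MulAut.congr e).toMonoidHom.comp MulAut.conjNormal
  have hΦ : ∀ (g : H) (n : N), Φ g (e n) = e (MulAut.conjNormal g n) := fun g n => by simp [Φ]
  let ι : (Fin m → T) →* H := N.subtype.comp e.symm.toMonoidHom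
  have hι : ∀ n : N, ι (e n) = n := fun n => by simp [ι]
  have ιi : Function.Injective ι := N.subtype_injective.comp e.symm.injective
  have nrm : ∀ Y : Subgroup (Fin m → T), (∀ α ∈ K.map Φ, ∀ y ∈ Y, α y ∈ Y) →
      K ≤ normalizer (Y.map ι : Set H) := fun Y hY k hk => mem_normalizer_fintype (by
    rintro _ ⟨y, hy, rfl⟩
    obtain ⟨n, rfl⟩ := e.surjective y
    exact ⟨_, hY _ ⟨k, hk, rfl⟩ _ hy, by rw [hΦ, hι, hι, MulAut.conjNormal_apply]⟩)
  have leN : ∀ Y : Subgroup (Fin m → T), Y.map ι ≤ N := by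
    rintro Y _ ⟨y, -, rfl⟩; exact (e.symm y).2
  have top : ∀ Y : Subgroup (Fin m → T), N ≤ Y.map ι → Y = ⊤ := fun Y h => by
    rw [eq_top_iff]; intro y _
    exact (mem_map_iff_mem ιi).1 (h (e.symm y).2)
  rcases core hT (𝒜 := K.map Φ) (D := K.comap ι) (by
      rintro _ ⟨k, hk, rfl⟩ d hd
      obtain ⟨n, rfl⟩ := e.surjective d
      rw [mem_comap, hι] at hd
      rw [mem_comap, hΦ, hι, MulAut.conjNormal_apply]
      exact mul_mem (mul_mem hk hd) (inv_mem hk))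
    (fun h => hNK fun n hn' => by
      have : ι _ ∈ K := h.ge (mem_top (e ⟨n, hn'⟩))
      rwa [hι] at this)
    (fun Y hY hi => (hK.le_iff.1 (le_sup_right : K ≤ Y.map ι ⊔ K)).symm.imp
      (fun h => le_antisymm (fun y hy => h.le (mem_sup_left ⟨y, hy, rfl⟩)) hY) fun h =>
      top Y fun n hn' => by
        have h1 : n ∈ ((Y.map ι ⊔ K : Subgroup H) : Set H) := h.ge (mem_top n)
        rw [coe_mul_of_right_le_normalizer_left _ _ (nrm Y hi)] at h1
        obtain ⟨y, hy, k, hk, rfl⟩ := h1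
        have h2 : k ∈ N := (mul_mem_cancel_left (leN Y hy)).1 hn'
        exact mul_mem hy ⟨e ⟨k, h2⟩, hY (by rw [mem_comap, hι]; exact hk), hι _⟩)
    (fun Y hY hi => (hmin (Y.map ι) (normalizer_eq_top_iff.1 (top_le_iff.1 ((hK.2 (K ⊔ N)
      (left_lt_sup.2 hNK)).ge.trans (sup_le (nrm Y hi) fun n hn' => mem_normalizer_fintype (by
        rintro _ ⟨y, hy, rfl⟩
        exact ⟨_, hY.conj_mem y hy (e ⟨n, hn'⟩), by rw [map_mul, map_mul, map_inv, hι]⟩)))))
      (leN Y)).imp (map_eq_bot_iff_of_injective Y ιi).1 fun h => top Y h.ge) with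
    ⟨L, h1, h2⟩ | ⟨ψ, k, c, h1, h2, h3⟩
  · exact ⟨T, _, m, e, hs, hT, hm, .inl ⟨L, h1, fun n => by rw [← h2, mem_comap, hι]⟩⟩
  · exact ⟨T, _, m, e.trans (MulEquiv.piCongrRight ψ), hs, hT, hm,
      .inr ⟨k, c, h1, h2, fun n => by rw [← hι, ← mem_comap, h3]; rfl⟩⟩

end H29.Scott
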